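import Mathlib
import Cfsg.Agent.Lib.Helper12.PGroupFixed

set_option autoImplicit false

namespace Cfsg.Agent.Lib.Helper69.MinDim

/-- the permutation representation on functions -/
noncomputable def funRep (K T O : Type*) [Group T] [Field K] [MulAction T O] :
    Representation K T (O → K) where
  toFun t := LinearMap.funLeft K K (fun o => t⁻¹ • o)
  map_one' := by
    ext φ o
    simp [LinearMap.funLeft_apply]
  map_mul' s t := by
    ext φ o
    simp [LinearMap.funLeft_apply, mul_smul]

theorem funRep_apply {K T O : Type*} [Group T] [Field K] [MulAction T O] (t : T) (φ : O → K)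
    (o : O) : funRep K T O t φ o = φ (t⁻¹ • o) := rfl

theorem linInd_of_sum_ne_zero {p : ℕ} [Fact p.Prime] {T K V O : Type*} [Group T] [Finite T]
    (hT : IsPGroup p T) [Field K] [CharP K p] [AddCommGroup V] [Module K V]
    (ρ : Representation K T V) [MulAction T O] [MulAction.IsPretransitive T O] [Fintype O]
    (f : O → V) (hf : ∀ t o, f (t • o) = ρ t (f o)) (hsum : ∑ o, f o ≠ 0) :
    LinearIndependent K f := by
  classical
  set Φ : (O → K) →ₗ[K] V := Fintype.linearCombination K f with hΦ
  have hΦa : ∀ φ : O → K, Φ φ = ∑ o, φ o • f o := fun φ => Fintype.linearCombination_apply K f φ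
  have hequiv : ∀ (t : T) (φ : O → K), Φ (funRep K T O t φ) = ρ t (Φ φ) := by
    intro t φ
    rw [hΦa, hΦa, map_sum]
    rw [← Equiv.sum_comp (MulAction.toPerm t)]
    apply Finset.sum_congr rfl
    intro o _
    simp only [MulAction.toPerm_apply, funRep_apply, inv_smul_smul, hf, map_smul]
  have hker : LinearMap.ker Φ = ⊥ := by
    by_contra hne
    obtain ⟨φ, hφ, hφ0, hfix⟩ := Cfsg.Agent.Lib.Helper12.exists_fixed_ne_zero hT (funRep K T O)
      (LinearMap.ker Φ) (by
        intro g v hv
        rw [LinearMap.mem_ker] at hv ⊢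
        rw [hequiv, hv, map_zero]) hne
    obtain ⟨o₀, ho₀⟩ : ∃ o, φ o ≠ 0 := by
      by_contra hall
      push Not at hall
      exact hφ0 (funext hall)
    have hconst : ∀ o, φ o = φ o₀ := by
      intro o
      obtain ⟨t, ht⟩ := MulAction.exists_smul_eq T o o₀
      have := congrFun (hfix t⁻¹) o
      rw [funRep_apply, inv_inv, ht] at this
      exact this.symm
    rw [LinearMap.mem_ker, hΦa] at hφ
    simp only [hconst] at hφ
    rw [← Finset.smul_sum] at hφ
    rcases smul_eq_zero.mp hφ with h1 | h1
    · exact ho₀ h1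
    · exact hsum h1
  rw [Fintype.linearIndependent_iff]
  intro g hg i
  have : g ∈ LinearMap.ker Φ := by
    rw [LinearMap.mem_ker, hΦa]
    exact hg
  rw [hker, Submodule.mem_bot] at this
  rw [this]
  rfl

end Cfsg.Agent.Lib.Helper69.MinDim
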