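import Mathlib

set_option autoImplicit false

namespace Cfsg.Agent.Lib.Helper69.MinDim

theorem exists_orbit_sum_ne_zero {T Ω V : Type*} [Group T] [MulAction T Ω] [Fintype Ω]
    [AddCommMonoid V] (F : Ω → V) (h : ∑ ω, F ω ≠ 0) :
    ∃ ω₀ : Ω, ∀ [Fintype (MulAction.orbit T ω₀)], ∑ ω : MulAction.orbit T ω₀, F ω ≠ 0 := by
  classical
  by_contra hcon
  push Not at hcon
  apply h
  have : Fintype (MulAction.orbitRel.Quotient T Ω) := Fintype.ofFinite _
  rw [← Finset.sum_fiberwise (s := Finset.univ)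
    (g := fun ω : Ω => (Quotient.mk'' ω : MulAction.orbitRel.Quotient T Ω)) (f := F)]
  apply Finset.sum_eq_zero
  intro q _
  induction q using Quotient.inductionOn' with
  | h ω₀ =>
    obtain ⟨inst, hz⟩ := hcon ω₀
    rw [← hz]
    have hmem : ∀ x : Ω, x ∈ Finset.univ.filter (fun ω : Ω =>
        (Quotient.mk'' ω : MulAction.orbitRel.Quotient T Ω) = Quotient.mk'' ω₀) ↔
        x ∈ MulAction.orbit T ω₀ := by
      intro x
      rw [Finset.mem_filter, Quotient.eq'']
      simp [MulAction.orbitRel_apply]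
    exact Finset.sum_subtype _ hmem F

end Cfsg.Agent.Lib.Helper69.MinDim
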