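import Mathlib
import Cfsg.Agent.Lib.Helper77.BrauerMap

set_option autoImplicit false

namespace Cfsg.Agent.Lib.Helper69.MinDim

theorem exists_fixed_of_functional {p : ℕ} [Fact p.Prime] {T R K V O : Type*} [Group T]
    [Field K] [CharP K p] [AddCommGroup V] [Module K V]
    (ρ : Representation K T V) [MulAction T O] [Fintype O]
    (f : O → V) (hf : ∀ t o, f (t • o) = ρ t (f o)) (hli : LinearIndependent K f)
    [Group R] [Finite R] (hR : IsPGroup p R) (ι : R →* T)
    (l : V →ₗ[K] K) (hl : ∀ r v, l (ρ (ι r) v) = l v)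
    (v : V) (hv : v ∈ Submodule.span K (Set.range f)) (hfix : ∀ r, ρ (ι r) v = v)
    (hne : l v ≠ 0) : ∃ o : O, ∀ r : R, ι r • o = o := by
  classical
  obtain ⟨c, hc⟩ := (Submodule.mem_span_range_iff_exists_fun K).mp hv
  have hcinv : ∀ (r : R) (o : O), c (ι r • o) = c o := by
    intro r o
    have h1 : ∑ o, c o • f o = ∑ o, c ((ι r)⁻¹ • o) • f o := by
      calc ∑ o, c o • f o = ρ (ι r) (∑ o, c o • f o) := by rw [hc, hfix]
        _ = ∑ o, c o • f (ι r • o) := by
          rw [map_sum]
          apply Finset.sum_congr rfl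
          intro o _
          rw [map_smul, hf]
        _ = ∑ o, c ((ι r)⁻¹ • o) • f o := by
          rw [← Equiv.sum_comp (MulAction.toPerm (ι r)) (fun o => c ((ι r)⁻¹ • o) • f o)]
          apply Finset.sum_congr rfl
          intro o _
          simp only [MulAction.toPerm_apply, inv_smul_smul]
    have h2 : ∑ o, (c o - c ((ι r)⁻¹ • o)) • f o = 0 := by
      simp only [sub_smul, Finset.sum_sub_distrib]
      rw [h1, sub_self]
    have h3 := (Fintype.linearIndependent_iff.mp hli) _ h2 (ι r • o)
    rw [inv_smul_smul, sub_eq_zero] at h3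
    exact h3
  by_contra hno
  push Not at hno
  apply hne
  have hlv : l v = ∑ o, c o * l (f o) := by
    rw [← hc, map_sum]
    apply Finset.sum_congr rfl
    intro o _
    rw [map_smul, smul_eq_mul]
  rw [hlv]
  have := Cfsg.Agent.Lib.Helper77.sum_eq_sum_fixed (k := K) p hR
    ((MulAction.toPermHom T O).comp ι) (fun o => c o * l (f o))
    (by
      intro u x
      show c (ι u • x) * l (f (ι u • x)) = _
      rw [hcinv, hf, hl])
    ∅
    (by
      intro x
      constructor
      · intro h; simp at h
      · intro h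
        exfalso
        obtain ⟨r, hr⟩ := hno x
        exact hr (h r))
  rw [this, Finset.sum_empty]

end Cfsg.Agent.Lib.Helper69.MinDim
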