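import Mathlib

set_option autoImplicit false

namespace Cfsg.Agent.Lib.Helper69.MinDim

theorem mem_centralizer_of_conj_eq {G : Type*} [Group G] [Finite G] {p : ℕ} [Fact p.Prime]
    (Q : Subgroup G) (x r : G) (hr : ∃ j : ℕ, r ^ p ^ j = 1) (hx : ¬ p ∣ orderOf x)
    (hxQ : ∀ u ∈ Q, x⁻¹ * u * x ∈ Q) (h : ∀ u ∈ Q, x⁻¹ * u * x = r⁻¹ * u * r) :
    x ∈ Subgroup.centralizer (Q : Set G) := by
  have key : ∀ n : ℕ, ∀ u ∈ Q, (x ^ n)⁻¹ * u * x ^ n = (r ^ n)⁻¹ * u * r ^ n := by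
    intro n
    induction n with
    | zero => intro u _; simp
    | succ n ih =>
      intro u hu
      have h1 := ih (x⁻¹ * u * x) (hxQ u hu)
      rw [pow_succ', pow_succ']
      calc (x * x ^ n)⁻¹ * u * (x * x ^ n) = (x ^ n)⁻¹ * (x⁻¹ * u * x) * x ^ n := by group
        _ = (r ^ n)⁻¹ * (x⁻¹ * u * x) * r ^ n := h1
        _ = (r ^ n)⁻¹ * (r⁻¹ * u * r) * r ^ n := by rw [h u hu]
        _ = (r * r ^ n)⁻¹ * u * (r * r ^ n) := by group
  obtain ⟨j, hj⟩ := hr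
  have hp : p.Prime := Fact.out
  have hcop : (p ^ j).Coprime (orderOf x) :=
    Nat.Coprime.pow_left j ((Nat.Prime.coprime_iff_not_dvd hp).mpr hx)
  obtain ⟨m, hm⟩ := exists_pow_eq_self_of_coprime hcop
  have hc : x ^ p ^ j ∈ Subgroup.centralizer (Q : Set G) := by
    rw [Subgroup.mem_centralizer_iff]
    intro u hu
    have h1 := key (p ^ j) u hu
    rw [hj] at h1
    simp only [inv_one, one_mul, mul_one] at h1
    calc u * x ^ p ^ j = x ^ p ^ j * ((x ^ p ^ j)⁻¹ * u * x ^ p ^ j) := by group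
      _ = x ^ p ^ j * u := by rw [h1]
  rw [← hm]
  exact Subgroup.pow_mem _ hc m

end Cfsg.Agent.Lib.Helper69.MinDim
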