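import Mathlib
import Cfsg.Agent.Lib.Helper69.RelIto1
import Cfsg.Agent.Lib.Helper69.Wielandt
import Cfsg.Agent.Lib.Helper69.DirectFactor
import Cfsg.Agent.Lib.Lead.Residual
import Cfsg.Agent.Lib.Helper1.SchurZassenhaus

/-!
# Class sizes of `p`-singular elements, part 1: general lemmas
-/

set_option autoImplicit false

namespace Cfsg.Agent.Lib.Helper69

open Subgroup

variable {G : Type*} [Group G]

/-- if in a subgroup `C` no `p'`-element has a class size (in `C`) divisible by `p`, then the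
`p`-elements of `C` commute with the `p'`-elements of `C` -/
theorem commute_of_not_dvd_relIndex [Finite G] {p : ℕ} [Fact p.Prime] (C : Subgroup G)
    (h : ∀ t ∈ C, ¬ p ∣ orderOf t → ¬ p ∣ (centralizer ({t} : Set G)).relIndex C)
    {w c : G} (hw : w ∈ C) (hwp : ∃ k : ℕ, w ^ (p ^ k) = 1) (hc : c ∈ C) (hcp : ¬ p ∣ orderOf c) :
    w * c = c * w := by
  have hp : p.Prime := Fact.out
  have h1 : ∀ t : C, ¬ p ∣ orderOf t → ¬ p ∣ (centralizer ({t} : Set C)).index := by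
    intro t ht
    have e0 : centralizer ({t} : Set C) = (centralizer ({(t : G)} : Set G)).subgroupOf C := by
      ext g
      rw [mem_subgroupOf, mem_cent_singleton, mem_cent_singleton, Subtype.ext_iff]
      rfl
    rw [e0]
    exact h t t.2 (by rwa [Subgroup.orderOf_coe])
  obtain ⟨P0⟩ : Nonempty (Sylow p C) := inferInstance
  obtain ⟨hP0n, N0, hN0n, hN0c, hcomm⟩ := sylow_direct_factor h1 P0
  have hN0card : (Nat.card N0).Coprime p := by
    rw [← hN0c.index_eq_card, Nat.coprime_comm, Nat.Prime.coprime_iff_not_dvd hp]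
    exact P0.not_dvd_index
  obtain ⟨j, hj⟩ : ∃ j, N0.index = p ^ j := by
    rw [hN0c.symm.index_eq_card]
    exact P0.2.exists_card_eq
  have hcN : (⟨c, hc⟩ : C) ∈ N0 := by
    rw [Cfsg.Agent.Lib.Lead.mem_iff_coprime_orderOf_of_normal_complement hN0card hj,
      Subgroup.orderOf_mk]
    exact ((Nat.Prime.coprime_iff_not_dvd hp).2 hcp).symm
  have hwP : (⟨w, hw⟩ : C) ∈ P0 := by
    obtain ⟨k, hk⟩ := hwp
    obtain ⟨a, -, ha⟩ := exists_conj_mem_sylow_of_le ⊤ P0 le_top (⟨w, hw⟩ : C) (mem_top _)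
      ⟨k, Subtype.ext (by simpa using hk)⟩
    have h2 := hP0n.conj_mem _ ha a⁻¹
    have e : a⁻¹ * (a * (⟨w, hw⟩ : C) * a⁻¹) * a⁻¹⁻¹ = ⟨w, hw⟩ := by group
    rwa [e] at h2
  exact (congrArg Subtype.val (hcomm _ hcN _ hwP)).symm

/-- a Sylow `q`-subgroup inside a centralizer -/
theorem not_dvd_cind_of_commute [Finite G] {q : ℕ} [Fact q.Prime] (C : Subgroup G)
    (hq : ¬ q ∣ C.index) {w : G}
    (hcomm : ∀ c ∈ C, (∃ k : ℕ, c ^ (q ^ k) = 1) → w * c = c * w) : ¬ q ∣ cind w := by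
  obtain ⟨Q⟩ : Nonempty (Sylow q G) := inferInstance
  obtain ⟨g, hg⟩ := exists_conj_sylow_le C hq Q
  have hle : ((g • Q : Sylow q G) : Subgroup G) ≤ centralizer ({w} : Set G) := by
    intro z hz
    have hz' : g⁻¹ * z * g ∈ Q := (mem_smul_sylow Q g z).1 hz
    have e : g * (g⁻¹ * z * g) * g⁻¹ = z := by group
    have hzC : z ∈ C := e ▸ hg _ hz'
    have hzq : ∃ k : ℕ, z ^ (q ^ k) = 1 := by
      obtain ⟨k, hk⟩ := (g • Q : Sylow q G).2 ⟨z, hz⟩
      exact ⟨k, by simpa using congrArg Subtype.val hk⟩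
    exact mem_cent_singleton.2 (hcomm z hzC hzq).symm
  intro hd
  exact (g • Q : Sylow q G).not_dvd_index (hd.trans (index_dvd_of_le hle))

/-- non-trivial `p`-elements are not central when `p ∤ |Z(G)|` -/
theorem not_mem_center_of_pElement [Finite G] {p : ℕ} [Fact p.Prime]
    (hZ : ¬ p ∣ Nat.card (center G)) {w : G} (hw : ∃ k : ℕ, w ^ (p ^ k) = 1) (hw1 : w ≠ 1) :
    w ∉ center G := by
  have hp : p.Prime := Fact.out
  intro hc
  obtain ⟨k, hk⟩ := hw
  obtain ⟨i, -, hi⟩ := (Nat.dvd_prime_pow hp).1 (orderOf_dvd_of_pow_eq_one hk)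
  rcases Nat.eq_zero_or_pos i with rfl | hi0
  · exact hw1 (orderOf_eq_one_iff.1 (by simpa using hi))
  · apply hZ
    have h1 : orderOf w ∣ Nat.card (center G) := Subgroup.orderOf_dvd_natCard _ hc
    exact (hi ▸ dvd_pow_self p hi0.ne').trans h1

theorem dvd_orderOf_of_pElement {p : ℕ} [Fact p.Prime] {w : G} (hw : ∃ k : ℕ, w ^ (p ^ k) = 1)
    (hw1 : w ≠ 1) : p ∣ orderOf w := by
  have hp : p.Prime := Fact.out
  obtain ⟨k, hk⟩ := hw
  obtain ⟨i, -, hi⟩ := (Nat.dvd_prime_pow hp).1 (orderOf_dvd_of_pow_eq_one hk)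
  rcases Nat.eq_zero_or_pos i with rfl | hi0
  · exact absurd (orderOf_eq_one_iff.1 (by simpa using hi)) hw1
  · exact hi ▸ dvd_pow_self p hi0.ne'

theorem one_lt_cind [Finite G] {w : G} (hw : w ∉ center G) : 1 < cind w := by
  have h1 : cind w ≠ 1 := fun h => hw ((index_centralizer_eq_one_iff w).1 h)
  have h2 : cind w ≠ 0 := index_ne_zero_of_finite
  omega

end Cfsg.Agent.Lib.Helper69
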