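import Mathlib
import Cfsg.Agent.Lib.Helper69.PSing1
import Cfsg.Agent.Lib.Helper69.CoprimeIndex

/-!
# Class sizes of `p`-singular elements, part 2: the endgame with a normal Sylow subgroup
-/

set_option autoImplicit false

namespace Cfsg.Agent.Lib.Helper69

open Subgroup
open scoped Pointwise

variable {G : Type*} [Group G]

/-- a normal Sylow `p`-subgroup cannot consist of elements central in it or of `p`-power class size,
with both kinds occurring non-trivially -/
theorem false_of_types [Finite G] {p : ℕ} [Fact p.Prime] (P : Sylow p G)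
    (hPn : (P : Subgroup G).Normal)
    (htype : ∀ w ∈ P, (∀ y ∈ P, y * w = w * y) ∨ ∃ c : ℕ, cind w = p ^ c)
    {u v : G} (huP : u ∈ P) (hvP : v ∈ P) (huZ : ∀ y ∈ P, y * u = u * y) (hu : u ∉ center G)
    (hv : ¬ ∀ y ∈ P, y * v = v * y) : False := by
  have hp : p.Prime := Fact.out
  have hcopP : (Nat.card (P : Subgroup G)).Coprime (P : Subgroup G).index := P.card_coprime_index
  obtain ⟨B, hB⟩ := exists_right_complement'_of_coprime hcopP
  have hBcard : Nat.card B = (P : Subgroup G).index :=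
    Cfsg.Agent.Lib.Helper1.card_eq_index_of_isComplement' hB
  have hsolv : Group.IsSolvable (P : Subgroup G) := by
    have : Group.IsNilpotent (P : Subgroup G) := P.2.isNilpotent
    infer_instance
  have claim1 : ∀ w ∈ P, (∃ c : ℕ, cind w = p ^ c) →
      ∃ a ∈ P, a * w * a⁻¹ ∈ centralizer (B : Set G) := by
    rintro w - ⟨c, hc⟩
    set Cw := centralizer ({w} : Set G) with hCw
    have hcopi : ((P : Subgroup G).index).Coprime Cw.index := by
      rw [show Cw.index = p ^ c from hc]
      exact Nat.Coprime.pow_right _ ((Nat.Prime.coprime_iff_not_dvd hp).2 P.not_dvd_index).symm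
    have hidx : ((P : Subgroup G).subgroupOf Cw).index = (P : Subgroup G).index :=
      relIndex_eq_index_of_coprime _ _ hcopi
    have hcop1 : (Nat.card ((P : Subgroup G).subgroupOf Cw)).Coprime
        ((P : Subgroup G).subgroupOf Cw).index := by
      rw [hidx]
      obtain ⟨n, hn⟩ := (P.2.comap_subtype (K := Cw)).exists_card_eq
      have hn' : Nat.card ((P : Subgroup G).subgroupOf Cw) = p ^ n := hn
      rw [hn']
      exact Nat.Coprime.pow_left _ ((Nat.Prime.coprime_iff_not_dvd hp).2 P.not_dvd_index)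
    obtain ⟨B0, hB0⟩ := exists_right_complement'_of_coprime hcop1
    set B' := B0.map Cw.subtype with hB'
    have hB'card : Nat.card B' = (P : Subgroup G).index := by
      rw [hB', Nat.card_congr (B0.equivMapOfInjective Cw.subtype Cw.subtype_injective).symm.toEquiv,
        Cfsg.Agent.Lib.Helper1.card_eq_index_of_isComplement' hB0, hidx]
    obtain ⟨a, haP, ha⟩ := Cfsg.Agent.Lib.Helper1.sz_conj_card' (P : Subgroup G) hcopP B' B
      (Or.inl hsolv) hB'card hBcard
    refine ⟨a, haP, ?_⟩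
    rw [mem_centralizer_iff]
    intro b hb
    have hb2 : b ∈ MulAut.conj a • B' := by rw [ha]; exact hb
    obtain ⟨b', hb', rfl⟩ := (Subgroup.mem_smul_pointwise_iff_exists _ _ _).1 hb2
    have hb'C : b' ∈ Cw := map_subtype_le _ hb'
    have h1 : b' * w = w * b' := mem_cent_singleton.1 hb'C
    rw [MulAut.smul_def, MulAut.conj_apply]
    calc a * b' * a⁻¹ * (a * w * a⁻¹) = a * (b' * w) * a⁻¹ := by group
      _ = a * (w * b') * a⁻¹ := by rw [h1]
      _ = _ := by group
  have hPB : ∀ g : G, ∃ a ∈ P, ∃ b ∈ B, g = a * b := by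
    intro g
    have h1 : g ∈ ((P : Subgroup G) : Set G) * (B : Set G) := by
      rw [Subgroup.IsComplement.mul_eq hB]; exact Set.mem_univ g
    obtain ⟨a, ha, b, hb, rfl⟩ := h1
    exact ⟨a, ha, b, hb, rfl⟩
  let F₂ : Subgroup G :=
    { carrier := {x | x ∈ P ∧ ∃ z ∈ P, (∀ y ∈ P, y * z = z * y) ∧ x * z ∈ centralizer (B : Set G)}
      one_mem' := ⟨P.one_mem, 1, P.one_mem, fun y _ => by simp, by simp⟩
      mul_mem' := by
        rintro x x' ⟨hx, z, hz, hzc, hxz⟩ ⟨hx', z', hz', hzc', hxz'⟩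
        refine ⟨P.mul_mem hx hx', z * z', P.mul_mem hz hz', fun y hy => ?_, ?_⟩
        · rw [← mul_assoc, hzc y hy, mul_assoc, hzc' y hy, mul_assoc]
        · have e : x * x' * (z * z') = (x * z) * (x' * z') := by
            calc x * x' * (z * z') = x * (x' * z) * z' := by group
              _ = x * (z * x') * z' := by rw [hzc x' hx']
              _ = _ := by group
          rw [e]
          exact mul_mem hxz hxz'
      inv_mem' := by
        rintro x ⟨hx, z, hz, hzc, hxz⟩
        refine ⟨P.inv_mem hx, z⁻¹, P.inv_mem hz, fun y hy => ?_, ?_⟩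
        · exact ((show Commute y z from hzc y hy).inv_right : y * z⁻¹ = z⁻¹ * y)
        · have e : x⁻¹ * z⁻¹ = (x * z)⁻¹ := by rw [hzc x hx, mul_inv_rev]
          rw [e]
          exact inv_mem hxz }
  have hF₂mem : ∀ x, x ∈ F₂ ↔ x ∈ P ∧ ∃ z ∈ P, (∀ y ∈ P, y * z = z * y) ∧
      x * z ∈ centralizer (B : Set G) := fun x => Iff.rfl
  have htop : F₂.subgroupOf (P : Subgroup G) = ⊤ := by
    apply eq_top_of_forall_conj_mem
    intro g
    rcases htype g g.2 with h1 | h1
    · refine ⟨1, ?_⟩
      rw [mem_subgroupOf, hF₂mem]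
      refine ⟨by simp, (g : G)⁻¹, P.inv_mem g.2, fun y hy => ?_, by simp⟩
      exact ((show Commute y (g : G) from h1 y hy).inv_right : y * (g : G)⁻¹ = (g : G)⁻¹ * y)
    · obtain ⟨a, haP, ha⟩ := claim1 g g.2 h1
      refine ⟨⟨a, haP⟩, ?_⟩
      rw [mem_subgroupOf, hF₂mem]
      refine ⟨(⟨a, haP⟩ * g * ⟨a, haP⟩⁻¹ : (P : Subgroup G)).2, 1, P.one_mem, fun y _ => by simp, ?_⟩
      simpa using ha
  have hall : ∀ x ∈ P, x ∈ F₂ := by
    intro x hx
    have : (⟨x, hx⟩ : (P : Subgroup G)) ∈ F₂.subgroupOf (P : Subgroup G) := htop ▸ mem_top _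
    exact mem_subgroupOf.1 this
  have claim2 : ∀ w ∈ P, (¬ ∀ y ∈ P, y * w = w * y) → w ∈ centralizer (B : Set G) := by
    intro w hw hwn
    rcases htype w hw with h1 | h1
    · exact absurd h1 hwn
    obtain ⟨a, haP, ha⟩ := claim1 w hw h1
    obtain ⟨-, z, hz, hzc, haz⟩ := (hF₂mem a).1 (hall a haP)
    have e : (a * z) * w * (a * z)⁻¹ = a * w * a⁻¹ := by
      calc (a * z) * w * (a * z)⁻¹ = a * (z * w) * z⁻¹ * a⁻¹ := by group
        _ = a * (w * z) * z⁻¹ * a⁻¹ := by rw [hzc w hw]
        _ = _ := by group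
    rw [← e] at ha
    have h2 := mul_mem (mul_mem (inv_mem haz) ha) haz
    have e2 : (a * z)⁻¹ * ((a * z) * w * (a * z)⁻¹) * (a * z) = w := by group
    rwa [e2] at h2
  have hvB : v ∈ centralizer (B : Set G) := claim2 v hvP hv
  have huB : u ∉ centralizer (B : Set G) := by
    intro huB
    apply hu
    rw [mem_center_iff]
    intro g
    obtain ⟨a, ha, b, hb, rfl⟩ := hPB g
    have h1 : b * u = u * b := (mem_centralizer_iff.1 huB) b hb
    rw [mul_assoc, h1, ← mul_assoc, huZ a ha, mul_assoc]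
  have huv : ¬ ∀ y ∈ P, y * (u * v) = (u * v) * y := by
    intro h1
    apply hv
    intro y hy
    have h2 := h1 y hy
    rw [← mul_assoc, huZ y hy, mul_assoc, mul_assoc] at h2
    exact mul_left_cancel h2
  have h3 := claim2 (u * v) (P.mul_mem huP hvP) huv
  apply huB
  have h4 := mul_mem h3 (inv_mem hvB)
  rwa [mul_inv_cancel_right] at h4

end Cfsg.Agent.Lib.Helper69
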