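import Mathlib
import Cfsg.Agent.Lib.Helper69.PSing2

/-!
# Class sizes of `p`-singular elements, part 3: two non-trivial `p`-elements are linked
-/

set_option autoImplicit false

namespace Cfsg.Agent.Lib.Helper69

open Subgroup

variable {G : Type*} [Group G]

theorem cind_mul_dvd' [Finite G] {b y : G} (h : (cind b).Coprime (cind y)) :
    cind (b * y) ∣ cind b * cind y := by
  have h1 : centralizer ({b} : Set G) ⊓ centralizer ({y} : Set G) ≤ centralizer ({b * y} : Set G) := by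
    rintro g ⟨hg1, hg2⟩
    have hg1' : Commute g b := mem_cent_singleton.1 hg1
    have hg2' : Commute g y := mem_cent_singleton.1 hg2
    exact mem_cent_singleton.2 (hg1'.mul_right hg2')
  have h2 : (centralizer ({b} : Set G) ⊓ centralizer ({y} : Set G)).index = cind b * cind y := by
    rw [← relIndex_mul_index (inf_le_right : centralizer ({b} : Set G) ⊓ centralizer ({y} : Set G) ≤ _),
      inf_relIndex_right, relIndex_eq_index_of_coprime _ _ h]
  rw [← h2]
  exact index_dvd_of_le h1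

theorem false_of_noAdj [Finite G] {p : ℕ} [Fact p.Prime] (hZ : ¬ p ∣ Nat.card (center G)) {u v : G}
    (hu : ∃ k : ℕ, u ^ (p ^ k) = 1) (hv : ∃ k : ℕ, v ^ (p ^ k) = 1) (hu1 : u ≠ 1) (hv1 : v ≠ 1)
    (hc : Commute u v) (hcop : (cind u).Coprime (cind v))
    (hNA : ∀ (w : G) (r' s' : ℕ), r'.Prime → s'.Prime → r' ∣ cind u → s' ∣ cind v →
      p ∣ orderOf w → ¬ (r' * s' ∣ cind w))
    (hle : cind (u * v) ∣ cind v) : False := by
  have hp : p.Prime := Fact.out
  have huZ : u ∉ center G := not_mem_center_of_pElement hZ hu hu1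
  have hvZ : v ∉ center G := not_mem_center_of_pElement hZ hv hv1
  have hv0 : cind v ≠ 0 := index_ne_zero_of_finite
  -- (b) `p ∣ cind v`
  have hpv : p ∣ cind v := by
    obtain ⟨L, hLn, hLd, hLc⟩ := stab_class v
    have hpre : PreL (fun w => w = u) L :=
      ⟨hLn, fun w hw => by subst hw; exact (hcop.symm).of_dvd_left hLd,
        fun w hw g => by
          subst hw
          exact hLc w hcop (Nat.le_of_dvd (Nat.pos_of_ne_zero hv0) hle) g⟩
    have h1 : u ^ Nat.card L ∈ center G := hpre.pow_card_mem_center rfl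
    have h2 : u ^ Nat.card L = 1 := by
      by_contra hne
      obtain ⟨k, hk⟩ := hu
      exact not_mem_center_of_pElement hZ ⟨k, by rw [← pow_mul, mul_comm, pow_mul, hk, one_pow]⟩ hne h1
    exact ((dvd_orderOf_of_pElement hu hu1).trans (orderOf_dvd_of_pow_eq_one h2)).trans hLd
  have hpu : ¬ p ∣ cind u := fun h => by
    have := Nat.eq_one_of_dvd_coprimes hcop h hpv
    exact hp.one_lt.ne' this
  obtain ⟨r₀, hr₀, hr₀u⟩ := Nat.exists_prime_and_dvd (one_lt_cind huZ).ne'
  have hr₀p : r₀ ≠ p := fun h => hpu (h ▸ hr₀u)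
  set C := centralizer ({u} : Set G) with hC
  -- (c)
  have hcc : ∀ w ∈ C, (∃ k : ℕ, w ^ (p ^ k) = 1) → ∀ c ∈ C, ¬ p ∣ orderOf c → w * c = c * w := by
    intro w hw hwp c hcC hcp
    refine commute_of_not_dvd_relIndex C ?_ hw hwp hcC hcp
    intro t ht htp hdvd
    have hcomm : Commute u t := (mem_cent_singleton.1 ht).symm
    have hco : (orderOf u).Coprime (orderOf t) := coprime_orderOf_of_not_dvd hp hu htp
    have e1 := centralizer_mul_of_coprime hcomm hco
    have e2 : (centralizer ({t} : Set G) ⊓ C).relIndex C * C.index =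
        (centralizer ({t} : Set G) ⊓ C).index := relIndex_mul_index inf_le_right
    rw [inf_relIndex_right] at e2
    have h3 : cind (u * t) = (centralizer ({t} : Set G)).relIndex C * cind u := by
      rw [cind, e1, inf_comm, ← hC, ← e2]
    apply hNA (u * t) r₀ p hr₀ hp hr₀u hpv
    · rw [hcomm.orderOf_mul_eq_mul_orderOf_of_coprime hco]
      exact (dvd_orderOf_of_pElement hu hu1).mul_right _
    · rw [h3, mul_comm]
      exact mul_dvd_mul hdvd hr₀u
  -- the `q`-lemma
  have hql : ∀ q : ℕ, q.Prime → q ≠ p → ¬ q ∣ cind u → ∀ w ∈ C, (∃ k : ℕ, w ^ (p ^ k) = 1) →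
      ¬ q ∣ cind w := by
    intro q hq hqp hqu w hw hwp
    have : Fact q.Prime := ⟨hq⟩
    exact not_dvd_cind_of_commute C hqu (fun c hcC hcq =>
      hcc w hw hwp c hcC (not_dvd_orderOf_of_pow hq hp hqp hcq))
  have hvC : v ∈ C := mem_cent_singleton.2 hc.symm.eq
  -- (e)
  have he : ∀ w : G, (∃ k : ℕ, w ^ (p ^ k) = 1) → w ≠ 1 → p ∣ cind w → ∃ c : ℕ, cind w = p ^ c := by
    intro w hwp hw1 hpw
    refine ⟨_, Nat.eq_prime_pow_of_unique_prime_dvd index_ne_zero_of_finite (fun {q} hq hqw => ?_)⟩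
    by_contra hqp
    have hqu : ¬ q ∣ cind u := by
      intro hqu
      apply hNA w q p hq hp hqu hpv (dvd_orderOf_of_pElement hwp hw1)
      exact Nat.Coprime.mul_dvd_of_dvd_of_dvd ((Nat.coprime_primes hq hp).2 hqp) hqw hpw
    obtain ⟨P⟩ : Nonempty (Sylow p G) := inferInstance
    obtain ⟨k, hk⟩ := exists_conj_sylow_le C hpu P
    obtain ⟨a, -, ha⟩ := exists_conj_mem_sylow_of_le ⊤ P le_top w (mem_top w) hwp
    have h1 := hql q hq hqp hqu _ (hk _ ha) (pow_conj k (pow_conj a hwp))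
    apply h1
    rw [cind, index_centralizer_conj, index_centralizer_conj]
    exact hqw
  -- (f)
  have hvS : ∀ S : Sylow p G, v ∈ S := by
    obtain ⟨c, hc'⟩ := he v hv hv1 hpv
    exact fun S => mem_sylow_of_index_centralizer_eq_pow v hv hc' S
  have hcv : ∀ w : G, (∃ k : ℕ, w ^ (p ^ k) = 1) → ∀ S : Sylow p G, w ∉ S → w * v = v * w := by
    intro w hwp S hwS
    have hw1 : w ≠ 1 := fun h => hwS (h ▸ S.one_mem)
    have hpw : ¬ p ∣ cind w := by
      intro hpw
      obtain ⟨c, hc'⟩ := he w hwp hw1 hpw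
      exact hwS (mem_sylow_of_index_centralizer_eq_pow w hwp hc' S)
    obtain ⟨k, hk⟩ := exists_conj_sylow_le _ hpw S
    have h1 : v ∈ (k • S : Sylow p G) := hvS _
    rw [mem_smul_sylow] at h1
    have h2 := hk _ h1
    have e : k * (k⁻¹ * v * k) * k⁻¹ = v := by group
    rw [e] at h2
    exact (mem_cent_singleton.1 h2).symm
  have hall : ∀ w : G, (∃ k : ℕ, w ^ (p ^ k) = 1) → ∀ S : Sylow p G, w ∈ S := by
    intro w hwp S
    by_contra hwS
    obtain ⟨k, hk⟩ := hwp
    have hzp : IsPGroup p (zpowers w) := by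
      apply IsPGroup.of_card_dvd_pow (n := k)
      rw [Nat.card_zpowers]
      exact orderOf_dvd_of_pow_eq_one hk
    obtain ⟨P, hP⟩ := hzp.exists_le_sylow
    have hwP : w ∈ P := hP (mem_zpowers w)
    have hel : ∀ o ∈ P, ∃ k : ℕ, o ^ (p ^ k) = 1 := by
      intro o ho
      obtain ⟨k, hk⟩ := P.2 ⟨o, ho⟩
      exact ⟨k, by simpa using congrArg Subtype.val hk⟩
    have hPv : (P : Subgroup G) ≤ centralizer ({v} : Set G) := by
      intro o ho
      rw [mem_cent_singleton]
      by_cases hoS : o ∈ S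
      · have h1 : w * o ∉ S := fun h => hwS (by
          have := S.mul_mem h (S.inv_mem hoS)
          rwa [mul_inv_cancel_right] at this)
        have h2 := hcv (w * o) (hel _ (P.mul_mem hwP ho)) S h1
        have h3 := hcv w ⟨k, hk⟩ S hwS
        have h4 : w * (o * v) = w * (v * o) := by
          rw [← mul_assoc, h2, ← mul_assoc, ← h3, mul_assoc]
        exact mul_left_cancel h4
      · exact hcv o (hel o ho) S hoS
    exact P.not_dvd_index (hpv.trans (index_dvd_of_le hPv))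
  -- (g)
  obtain ⟨P⟩ : Nonempty (Sylow p G) := inferInstance
  have hel : ∀ o ∈ P, ∃ k : ℕ, o ^ (p ^ k) = 1 := by
    intro o ho
    obtain ⟨k, hk⟩ := P.2 ⟨o, ho⟩
    exact ⟨k, by simpa using congrArg Subtype.val hk⟩
  have hPn : (P : Subgroup G).Normal := ⟨fun n hn g => hall _ (pow_conj g (hel n hn)) P⟩
  have hcent : ∀ w : G, ¬ p ∣ cind w → ∀ y ∈ P, y * w = w * y := by
    intro w hpw y hy
    obtain ⟨k, hk⟩ := exists_conj_sylow_le _ hpw P
    have h1 : k⁻¹ * y * k⁻¹⁻¹ ∈ P := hPn.conj_mem y hy k⁻¹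
    have h2 := hk _ h1
    have e : k * (k⁻¹ * y * k⁻¹⁻¹) * k⁻¹ = y := by group
    rw [e] at h2
    exact mem_cent_singleton.1 h2
  refine false_of_types P hPn ?_ (hall u hu P) (hall v hv P) (hcent u hpu) huZ ?_
  · intro w hw
    by_cases hw1 : w = 1
    · left; intro y _; simp [hw1]
    by_cases hpw : p ∣ cind w
    · exact Or.inr (he w (hel w hw) hw1 hpw)
    · exact Or.inl (hcent w hpw)
  · intro h1
    have hPv : (P : Subgroup G) ≤ centralizer ({v} : Set G) := fun y hy =>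
      mem_cent_singleton.2 (h1 y hy)
    exact P.not_dvd_index (hpv.trans (index_dvd_of_le hPv))

/-- (KC), one-sided version -/
theorem false_of_noAdj_aux [Finite G] {p : ℕ} [Fact p.Prime] (hZ : ¬ p ∣ Nat.card (center G)) {u v : G}
    (hu : ∃ k : ℕ, u ^ (p ^ k) = 1) (hv : ∃ k : ℕ, v ^ (p ^ k) = 1) (hu1 : u ≠ 1) (hv1 : v ≠ 1)
    (hcop : (cind u).Coprime (cind v))
    (hNA : ∀ (w : G) (r' s' : ℕ), r'.Prime → s'.Prime → r' ∣ cind u → s' ∣ cind v →
      p ∣ orderOf w → ¬ (r' * s' ∣ cind w))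
    (hpu : ¬ p ∣ cind u) : False := by
  have hp : p.Prime := Fact.out
  have huZ : u ∉ center G := not_mem_center_of_pElement hZ hu hu1
  obtain ⟨P⟩ : Nonempty (Sylow p G) := inferInstance
  obtain ⟨k, hk⟩ := exists_conj_sylow_le _ hpu P
  obtain ⟨a, -, ha⟩ := exists_conj_mem_sylow_of_le ⊤ P le_top v (mem_top v) hv
  set v' := k * (a * v * a⁻¹) * k⁻¹ with hv'
  have hv'C : v' ∈ centralizer ({u} : Set G) := hk _ ha
  have hc : Commute u v' := (mem_cent_singleton.1 hv'C).symm
  have hv'p : ∃ k : ℕ, v' ^ (p ^ k) = 1 := pow_conj k (pow_conj a hv)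
  have hcind : cind v' = cind v := by
    rw [cind, hv', index_centralizer_conj, index_centralizer_conj]
  have hv'1 : v' ≠ 1 := by
    intro h1
    apply hv1
    have h2 : a * v * a⁻¹ = 1 := by
      have : k⁻¹ * v' * k = a * v * a⁻¹ := by rw [hv']; group
      rw [← this, h1]; group
    have : a⁻¹ * (a * v * a⁻¹) * a = v := by group
    rw [← this, h2]; group
  rw [← hcind] at hcop hNA
  have huv1 : u * v' ≠ 1 := by
    intro h1
    have h2 : v' = u⁻¹ := (eq_inv_of_mul_eq_one_right h1)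
    have h3 : cind v' = cind u := by
      rw [h2, cind, cind]
      congr 1
      ext g
      rw [mem_cent_singleton, mem_cent_singleton]
      constructor
      · intro h
        have h4 := (show Commute g u⁻¹ from h).inv_right
        rw [inv_inv] at h4
        exact h4
      · intro h; exact ((show Commute g u from h).inv_right : g * u⁻¹ = u⁻¹ * g)
    rw [h3, Nat.coprime_self] at hcop
    exact (one_lt_cind huZ).ne' hcop
  have huvp : p ∣ orderOf (u * v') := dvd_orderOf_of_pElement (pow_mul_of_commute hc hu hv'p) huv1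
  have hd := cind_mul_dvd' hcop
  by_cases h1 : (cind (u * v')).Coprime (cind u)
  · exact false_of_noAdj hZ hu hv'p hu1 hv'1 hc hcop hNA (h1.dvd_of_dvd_mul_left hd)
  by_cases h2 : (cind (u * v')).Coprime (cind v')
  · refine false_of_noAdj hZ hv'p hu hv'1 hu1 hc.symm hcop.symm ?_ ?_
    · intro w r' s' hr' hs' hr'd hs'd hw hdvd
      exact hNA w s' r' hs' hr' hs'd hr'd hw (by rwa [mul_comm])
    · rw [← hc.eq]
      exact h2.dvd_of_dvd_mul_right hd
  obtain ⟨r', hr', hr'1, hr'2⟩ := Nat.Prime.not_coprime_iff_dvd.1 h1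
  obtain ⟨s', hs', hs'1, hs'2⟩ := Nat.Prime.not_coprime_iff_dvd.1 h2
  have hne : r' ≠ s' := by
    rintro rfl
    exact hr'.one_lt.ne' (Nat.eq_one_of_dvd_coprimes hcop hr'2 hs'2)
  exact hNA (u * v') r' s' hr' hs' hr'2 hs'2 huvp
    (Nat.Coprime.mul_dvd_of_dvd_of_dvd ((Nat.coprime_primes hr' hs').2 hne) hr'1 hs'1)

/-- (KC): two non-trivial `p`-elements have class sizes with a common prime divisor, or with prime
divisors both dividing the class size of some `p`-singular element -/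
theorem exists_adj [Finite G] {p : ℕ} [Fact p.Prime] (hZ : ¬ p ∣ Nat.card (center G)) {u v : G}
    (hu : ∃ k : ℕ, u ^ (p ^ k) = 1) (hv : ∃ k : ℕ, v ^ (p ^ k) = 1) (hu1 : u ≠ 1) (hv1 : v ≠ 1) :
    ∃ r' s' : ℕ, r'.Prime ∧ s'.Prime ∧ r' ∣ cind u ∧ s' ∣ cind v ∧
      (r' = s' ∨ ∃ w : G, p ∣ orderOf w ∧ r' * s' ∣ cind w) := by
  have hp : p.Prime := Fact.out
  by_contra hcon
  push Not at hcon
  have hcop : (cind u).Coprime (cind v) :=
    Nat.coprime_of_dvd (fun k hk h1 h2 => (hcon k k hk hk h1 h2).1 rfl)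
  have hNA : ∀ (w : G) (r' s' : ℕ), r'.Prime → s'.Prime → r' ∣ cind u → s' ∣ cind v →
      p ∣ orderOf w → ¬ (r' * s' ∣ cind w) := fun w r' s' hr' hs' h1 h2 hw =>
    (hcon r' s' hr' hs' h1 h2).2 w hw
  by_cases hpu : p ∣ cind u
  · have hpv : ¬ p ∣ cind v := fun h => hp.one_lt.ne' (Nat.eq_one_of_dvd_coprimes hcop hpu h)
    refine false_of_noAdj_aux hZ hv hu hv1 hu1 hcop.symm ?_ hpv
    intro w r' s' hr' hs' hr'd hs'd hw hdvd
    exact hNA w s' r' hs' hr' hs'd hr'd hw (by rwa [mul_comm])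
  · exact false_of_noAdj_aux hZ hu hv hu1 hv1 hcop hNA hpu

end Cfsg.Agent.Lib.Helper69
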